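import Cfsg.Agent.McLCover.StepH.Data

/-! Generated: checks of the rows. -/

set_option autoImplicit false
set_option maxRecDepth 100000

namespace CfsgLib.McLCover.StepH

open CfsgLib.CosetEnum

theorem rows0 : allFrom (checkRow epF (fun x => x) 3009 6 nodeF TF tfF 162) 0 162 = true := by
  decide +kernel

end CfsgLib.McLCover.StepH
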