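import Cfsg.Agent.McLCover.StepH.Facts0
import Cfsg.Agent.McLCover.StepH.Rows0

/-! Generated: the checked certificate. -/

set_option autoImplicit false
set_option maxRecDepth 100000

namespace CfsgLib.McLCover.StepH

open CfsgLib.CosetEnum

theorem facts : FactsChecked cert.ep cert.iv cert.words cert.nr 3009 :=
  (factsUpTo3009 FactsChecked.zero)

theorem rows : ∀ i < cert.n, checkRow cert.ep cert.iv 3009 cert.L cert.node cert.T cert.tf cert.n i = true :=
  RangeChecked.all (RangeChecked.app 162 162 RangeChecked.zero rows0 rfl)

theorem node_zero : cert.node 0 = 0 := by decide +kernel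

theorem n_pos : 0 < cert.n := by decide +kernel

end CfsgLib.McLCover.StepH
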